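import Mathlib

/-!
# The number theory of the rank two rationality relation
-/

set_option autoImplicit false

open Real Polynomial

namespace Cfsg.Agent.FeitHigman

theorem dvd_120_of_totient_le {d : ℕ} (h0 : 0 < d) (h : d.totient ≤ 4) : d ∣ 120 := by
  rw [Nat.dvd_iff_prime_pow_dvd_dvd]
  intro p k hp hk
  rcases Nat.eq_zero_or_pos k with rfl | hk0
  · simp
  have h1 : (p ^ k).totient ≤ 4 := le_trans
    (Nat.le_of_dvd (Nat.totient_pos.2 h0) (Nat.totient_dvd_of_dvd hk)) h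
  rw [Nat.totient_prime_pow hp hk0] at h1
  have hp2 := hp.two_le
  have h2 : p - 1 ≤ 4 := le_trans (Nat.le_mul_of_pos_left _ (pow_pos hp.pos _)) h1
  have h3 : p ^ (k - 1) ≤ 4 := le_trans (Nat.le_mul_of_pos_right _ (by omega)) h1
  have h4 : k ≤ 3 := by
    by_contra hc
    have : 2 ^ 3 ≤ p ^ (k - 1) :=
      le_trans (Nat.pow_le_pow_left hp2 3) (Nat.pow_le_pow_right hp.pos (by omega))
    omega
  have hp5 : p ≤ 5 := by omega
  interval_cases p <;> interval_cases k <;> first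
    | (revert h1; decide)
    | exact absurd hp (by norm_num)

/-- A quadratic relation for the squared double cosine bounds the totient of the order. -/
theorem totient_le_four {m : ℕ} (hm : 0 < m) {A B C : ℚ} (hne : A ≠ 0 ∨ B ≠ 0)
    (h : (A : ℝ) * ((2 * cos (2 * π / m)) ^ 2) ^ 2 + B * (2 * cos (2 * π / m)) ^ 2 + C = 0) :
    (m / m.gcd 2).totient ≤ 4 := by
  set ζ : ℂ := Complex.exp (2 * π * Complex.I / m) with hζ
  have hprim : IsPrimitiveRoot ζ m := Complex.isPrimitiveRoot_exp m hm.ne'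
  have hw : IsPrimitiveRoot (ζ ^ 2) (m / m.gcd 2) := by
    rw [IsPrimitiveRoot.iff_orderOf, orderOf_pow' _ two_ne_zero, ← hprim.eq_orderOf]
  set w := ζ ^ 2 with hwdef
  have hw0 : w ≠ 0 := pow_ne_zero _ (Complex.exp_ne_zero _)
  have hy : ((((2 * cos (2 * π / m)) ^ 2 : ℝ)) : ℂ) * w = (w + 1) ^ 2 := by
    have hz : ((2 * cos (2 * π / m) : ℝ) : ℂ) * ζ = ζ ^ 2 + 1 := by
      push_cast
      rw [Complex.two_cos, hζ, show (2 : ℂ) * π / m * Complex.I = 2 * π * Complex.I / m by ring,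
        neg_mul, show (2 : ℂ) * π / m * Complex.I = 2 * π * Complex.I / m by ring, add_mul,
        ← sq, ← Complex.exp_add (-(2 * π * Complex.I / m)), neg_add_cancel, Complex.exp_zero]
    rw [hwdef, Complex.ofReal_pow, ← mul_pow, hz]
  set p : ℚ[X] := Polynomial.C A * (Polynomial.X + 1) ^ 4 + Polynomial.C B * (Polynomial.X * (Polynomial.X + 1) ^ 2)
    + Polynomial.C C * Polynomial.X ^ 2 with hp
  have hp0 : p ≠ 0 := by
    intro e
    have e4 := congrArg (fun q : ℚ[X] => q.coeff 4) e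
    have e3 := congrArg (fun q : ℚ[X] => q.coeff 3) e
    have expand : p = Polynomial.C A * Polynomial.X ^ 4 + Polynomial.C (4 * A + B) * Polynomial.X ^ 3
        + Polynomial.C (6 * A + 2 * B + C) * Polynomial.X ^ 2 + Polynomial.C (4 * A + B) * Polynomial.X ^ 1
        + Polynomial.C A * Polynomial.X ^ 0 := by
      simp only [hp, map_add, map_mul, map_ofNat]; ring
    rw [expand] at e4 e3
    simp only [coeff_add, coeff_C_mul_X_pow, coeff_zero] at e4 e3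
    norm_num at e4 e3
    rcases hne with h' | h'
    · exact h' e4
    · exact h' (by linarith)
  have hroot : aeval w p = 0 := by
    have h' : (A : ℂ) * ((((2 * cos (2 * π / m)) ^ 2 : ℝ)) : ℂ) ^ 2 +
        B * (((2 * cos (2 * π / m)) ^ 2 : ℝ) : ℂ) + C = 0 := by exact_mod_cast h
    simp only [hp, map_add, map_mul, aeval_C, map_pow, aeval_X, map_one, eq_ratCast]
    linear_combination w ^ 2 * h' - ((A : ℂ) * (((((2 * cos (2 * π / m)) ^ 2 : ℝ)) : ℂ) * w + (w + 1) ^ 2) + B * w) * hy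
  have hd0 : 0 < m / m.gcd 2 :=
    Nat.div_pos (Nat.gcd_le_left 2 hm) (Nat.gcd_pos_of_pos_left 2 hm)
  have hmin : cyclotomic (m / m.gcd 2) ℚ = minpoly ℚ w := cyclotomic_eq_minpoly_rat hw hd0
  have hle := natDegree_le_of_dvd (minpoly.dvd ℚ w hroot) hp0
  rw [← hmin, natDegree_cyclotomic] at hle
  refine hle.trans ?_
  rw [hp]
  compute_degree

/-- The possible orders. -/
theorem candidates {m : ℕ} (hm : 2 ≤ m) (h : (m / m.gcd 2).totient ≤ 4) :
    m ∈ ({2, 3, 4, 5, 6, 8, 10, 12, 16, 20, 24} : Finset ℕ) := by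
  have hd0 : 0 < m / m.gcd 2 :=
    Nat.div_pos (Nat.gcd_le_left 2 (by omega)) (Nat.gcd_pos_of_pos_left 2 (by omega))
  have h120 := dvd_120_of_totient_le hd0 h
  have hm240 : m ∣ 240 := by
    have : m = m / m.gcd 2 * m.gcd 2 := (Nat.div_mul_cancel (Nat.gcd_dvd_left _ _)).symm
    rw [this]
    exact Nat.mul_dvd_mul h120 (Nat.gcd_dvd_right m 2)
  have hmem := Nat.mem_divisors.2 ⟨hm240, (by norm_num : (240 : ℕ) ≠ 0)⟩
  have key : ∀ n ∈ Nat.divisors 240, 2 ≤ n → (n / n.gcd 2).totient ≤ 4 →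
      n ∈ ({2, 3, 4, 5, 6, 8, 10, 12, 16, 20, 24} : Finset ℕ) := by decide +kernel
  exact key m hmem hm h

theorem sqrt_two_irrat (x : ℚ) : (x : ℝ) ^ 2 ≠ 2 := by
  intro h
  have hi := irrational_sqrt_two
  refine hi ⟨|x|, ?_⟩
  rw [← h, Real.sqrt_sq_eq_abs, Rat.cast_abs]

theorem sqrt_prime_irrat {p : ℕ} (hp : p.Prime) (x : ℚ) : (x : ℝ) ^ 2 ≠ p := by
  intro h
  refine hp.irrational_sqrt ⟨|x|, ?_⟩
  rw [← h, Real.sqrt_sq_eq_abs, Rat.cast_abs]

/-- The shape of the rationality relation at one angle. -/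
def Rel (r s : ℕ) (α : ℝ) : Prop :=
  ∃ ρ : ℚ, (ρ : ℝ) * (4 * ((r : ℝ) * s) - (√((r : ℝ) * s) * α) ^ 2) =
    ((r : ℝ) * s + 1) * (r + s) + ((r : ℝ) - 1) * ((s : ℝ) - 1) * (√((r : ℝ) * s) * α) -
      (√((r : ℝ) * s) * α) ^ 2

variable {r s : ℕ} {α : ℝ}

/-- Normal form: `u Q y + a b R α + K = 0` with `u` positive for `0 ≤ α < 2`. -/
theorem Rel.normal (hr : 2 ≤ r) (hs : 2 ≤ s) (h : Rel r s α) :
    ∃ u K : ℚ, (u : ℝ) * ((r : ℝ) * s) * α ^ 2 + ((r : ℝ) - 1) * ((s : ℝ) - 1) * (√((r : ℝ) * s) * α) + K = 0 ∧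
      (0 ≤ α → α < 2 → 0 < u) ∧
      (K : ℝ) = ((r : ℝ) * s + 1) * (r + s) - 4 * ((r : ℝ) * s) * (u + 1) := by
  obtain ⟨ρ, hρ⟩ := h
  have hQ : √((r : ℝ) * s) ^ 2 = (r : ℝ) * s := Real.sq_sqrt (by positivity)
  refine ⟨ρ - 1, ((r : ℚ) * s + 1) * (r + s) - 4 * ((r : ℚ) * s) * ρ, ?_, fun h0 h2 => ?_, by push_cast; ring⟩
  · push_cast
    linear_combination -hρ - ((ρ : ℝ) - 1) * α ^ 2 * hQ
  · have hr' : (2 : ℝ) ≤ r := by exact_mod_cast hr
    have hs' : (2 : ℝ) ≤ s := by exact_mod_cast hs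
    have hpos : (0 : ℝ) < ((r : ℝ) * s) * (4 - α ^ 2) := by
      have : α ^ 2 < 4 := by nlinarith
      positivity
    have hβ : 0 ≤ ((r : ℝ) - 1) * ((s : ℝ) - 1) * (√((r : ℝ) * s) * α) :=
      mul_nonneg (by nlinarith) (by positivity)
    have h3 : (0 : ℝ) < ((r : ℝ) * s + 1) * (r + s) - 4 * ((r : ℝ) * s) := by
      nlinarith [mul_pos (show (0:ℝ) < r by linarith) (pow_pos (show (0:ℝ) < s - 1 by linarith) 2),
        mul_pos (show (0:ℝ) < s by linarith) (pow_pos (show (0:ℝ) < r - 1 by linarith) 2)]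
    have key : ((ρ : ℝ) - 1) * (((r : ℝ) * s) * (4 - α ^ 2)) =
        ((r : ℝ) * s + 1) * (r + s) - 4 * ((r : ℝ) * s) +
          ((r : ℝ) - 1) * ((s : ℝ) - 1) * (√((r : ℝ) * s) * α) := by
      linear_combination hρ + ((ρ : ℝ) - 1) * α ^ 2 * hQ
    have : (0 : ℝ) < (ρ : ℝ) - 1 := pos_of_mul_pos_left (by rw [key]; linarith) hpos.le
    exact_mod_cast this

theorem Rel.quadratic (hr : 2 ≤ r) (hs : 2 ≤ s) (h : Rel r s α) :
    ∃ A B C : ℚ, (A ≠ 0 ∨ B ≠ 0) ∧ (A : ℝ) * (α ^ 2) ^ 2 + B * α ^ 2 + C = 0 := by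
  obtain ⟨u, K, e, -, -⟩ := h.normal hr hs
  have hQ : √((r : ℝ) * s) ^ 2 = (r : ℝ) * s := Real.sq_sqrt (by positivity)
  set Q : ℚ := (r : ℚ) * s
  set ab : ℚ := ((r : ℚ) - 1) * ((s : ℚ) - 1)
  refine ⟨(u * Q) ^ 2, 2 * K * u * Q - Q * ab ^ 2, K ^ 2, ?_, ?_⟩
  · by_cases hu : u = 0
    · right
      have hr' : (2 : ℚ) ≤ r := by exact_mod_cast hr
      have hs' : (2 : ℚ) ≤ s := by exact_mod_cast hs
      rw [hu]; simp only [mul_zero, zero_mul, zero_sub, ne_eq, neg_eq_zero]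
      have : 0 < Q * ab ^ 2 := by
        simp only [Q, ab]
        exact mul_pos (by positivity) (pow_pos (mul_pos (by linarith) (by linarith)) 2)
      exact this.ne'
    · left
      have : (0 : ℚ) < Q := by simp only [Q]; positivity
      positivity
  · simp only [Q, ab]
    push_cast
    linear_combination ((u : ℝ) * ((r : ℝ) * s) * α ^ 2 + K - ((r : ℝ) - 1) * ((s : ℝ) - 1) * (√((r : ℝ) * s) * α)) * e
      + (((r : ℝ) - 1) * ((s : ℝ) - 1)) ^ 2 * α ^ 2 * hQ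

theorem five_false (hr : 2 ≤ r) (h : Rel r r ((√5 - 1) / 2)) : False := by
  obtain ⟨u, K, e, hu, hK⟩ := h.normal hr hr
  rw [Real.sqrt_mul_self (by positivity)] at e
  have h5 : √5 ^ 2 = 5 := Real.sq_sqrt (by norm_num)
  set α : ℝ := (√5 - 1) / 2
  have hα : α ^ 2 = 1 - α := by linear_combination (1 / 4 : ℝ) * h5
  have hr' : (2 : ℚ) ≤ r := by exact_mod_cast hr
  have hlin : ((((r : ℚ) - 1) ^ 2 * r - u * r ^ 2 : ℚ) : ℝ) * α = ((-(u * r ^ 2 + K) : ℚ) : ℝ) := by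
    push_cast
    rw [hα] at e
    linear_combination e
  have hc : ((r : ℚ) - 1) ^ 2 * r - u * r ^ 2 = 0 := by
    by_contra hne
    refine sqrt_prime_irrat (p := 5) Nat.prime_five
      (2 * (-(u * r ^ 2 + K) / (((r : ℚ) - 1) ^ 2 * r - u * r ^ 2)) + 1) ?_
    have hne' : ((((r : ℚ) - 1) ^ 2 * r - u * r ^ 2 : ℚ) : ℝ) ≠ 0 := by exact_mod_cast hne
    rw [Rat.cast_add, Rat.cast_mul, Rat.cast_div, ← hlin, mul_div_cancel_left₀ _ hne']
    push_cast
    simp only [α]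
    linear_combination h5
  rw [hc, Rat.cast_zero, zero_mul] at hlin
  have hK0 : u * r ^ 2 + K = 0 := by
    have : ((-(u * r ^ 2 + K) : ℚ) : ℝ) = 0 := hlin.symm
    have := Rat.cast_eq_zero.1 this
    linarith
  have hKq : K = ((r : ℚ) * r + 1) * (r + r) - 4 * ((r : ℚ) * r) * (u + 1) := by exact_mod_cast hK
  nlinarith [mul_pos (show (0:ℚ) < r by linarith) (pow_pos (show (0:ℚ) < r - 1 by linarith) 2)]

theorem ten_false (hr : 2 ≤ r) (hs : 2 ≤ s) (h : Rel r s ((1 + √5) / 2)) : False := by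
  obtain ⟨u, K, e, hu, -⟩ := h.normal hr hs
  have h5 : √5 ^ 2 = 5 := Real.sq_sqrt (by norm_num)
  have h5' : √5 < 3 := by nlinarith [Real.sqrt_nonneg 5]
  have h5'' : 1 < √5 := by nlinarith [Real.sqrt_nonneg 5]
  set α : ℝ := (1 + √5) / 2 with hαdef
  have hα : α ^ 2 = α + 1 := by linear_combination (1 / 4 : ℝ) * h5
  have hu0 : 0 < u := hu (by positivity) (by rw [hαdef]; linarith)
  have hR0 : 0 < √((r : ℝ) * s) := Real.sqrt_pos.2 (by positivity)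
  have hQ : √((r : ℝ) * s) ^ 2 = (r : ℝ) * s := Real.sq_sqrt (by positivity)
  have hr' : (2 : ℚ) ≤ r := by exact_mod_cast hr
  have hs' : (2 : ℚ) ≤ s := by exact_mod_cast hs
  have hab : (0 : ℚ) < ((r : ℚ) - 1) * ((s : ℚ) - 1) := mul_pos (by linarith) (by linarith)
  obtain ⟨x, y, hy, hxy⟩ : ∃ x y : ℚ, y < 0 ∧ √((r : ℝ) * s) * α = x + y * α := by
    refine ⟨-(u * ((r : ℚ) * s) + K) / (((r : ℚ) - 1) * ((s : ℚ) - 1)),
      -(u * ((r : ℚ) * s)) / (((r : ℚ) - 1) * ((s : ℚ) - 1)), div_neg_of_neg_of_pos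
        (neg_lt_zero.2 (by positivity)) hab, ?_⟩
    have hab' : ((r : ℝ) - 1) * ((s : ℝ) - 1) ≠ 0 := by
      have : ((((r : ℚ) - 1) * ((s : ℚ) - 1) : ℚ) : ℝ) ≠ 0 := by exact_mod_cast hab.ne'
      push_cast at this; exact this
    obtain ⟨hr1, hs1⟩ := mul_ne_zero_iff.1 hab'
    push_cast
    rw [hα] at e
    field_simp
    linear_combination e
  have hlin : ((((r : ℚ) * s) - y ^ 2 - 2 * x * y : ℚ) : ℝ) * α =
      ((x ^ 2 + y ^ 2 - (r : ℚ) * s : ℚ) : ℝ) := by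
    have := congrArg (fun z => z ^ 2) hxy
    simp only [mul_pow, hQ] at this
    push_cast
    linear_combination this - ((r : ℝ) * s - (y : ℝ) ^ 2) * hα
  have hc : ((r : ℚ) * s) - y ^ 2 - 2 * x * y = 0 := by
    by_contra hne
    refine sqrt_prime_irrat (p := 5) Nat.prime_five
      (2 * ((x ^ 2 + y ^ 2 - (r : ℚ) * s) / (((r : ℚ) * s) - y ^ 2 - 2 * x * y)) - 1) ?_
    have hne' : ((((r : ℚ) * s) - y ^ 2 - 2 * x * y : ℚ) : ℝ) ≠ 0 := by exact_mod_cast hne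
    rw [Rat.cast_sub, Rat.cast_mul, Rat.cast_div, ← hlin, mul_div_cancel_left₀ _ hne']
    push_cast
    simp only [α]
    linear_combination h5
  rw [hc, Rat.cast_zero, zero_mul] at hlin
  have hK0 : x ^ 2 + y ^ 2 - (r : ℚ) * s = 0 := Rat.cast_eq_zero.1 hlin.symm
  have hx : x * (x - 2 * y) = 0 := by linarith [hc, hK0]
  have hy' : (y : ℝ) < 0 := by exact_mod_cast hy
  have hα0 : 0 < α := by positivity
  have hpos : (0 : ℝ) < (x : ℝ) + y * α := by rw [← hxy]; positivity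
  rcases mul_eq_zero.1 hx with hx0 | hx2
  · rw [hx0, Rat.cast_zero] at hpos; nlinarith
  · have : (x : ℝ) = 2 * y := by
      have : x = 2 * y := by linarith
      exact_mod_cast this
    rw [this] at hpos; nlinarith

theorem sixteen_false (hr : 2 ≤ r) (hs : 2 ≤ s) (h : Rel r s (√(2 + √2))) : False := by
  obtain ⟨u, K, e, -, -⟩ := h.normal hr hs
  have h2 : √2 ^ 2 = 2 := Real.sq_sqrt (by norm_num)
  have hy2 : √(2 + √2) ^ 2 = 2 + √2 := Real.sq_sqrt (by positivity)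
  have hQ : √((r : ℝ) * s) ^ 2 = (r : ℝ) * s := Real.sq_sqrt (by positivity)
  have hr' : (2 : ℚ) ≤ r := by exact_mod_cast hr
  have hs' : (2 : ℚ) ≤ s := by exact_mod_cast hs
  have hab : (0 : ℚ) < ((r : ℚ) - 1) * ((s : ℚ) - 1) := mul_pos (by linarith) (by linarith)
  obtain ⟨x, y, hxy⟩ : ∃ x y : ℚ, √((r : ℝ) * s) * √(2 + √2) = x + y * √2 := by
    refine ⟨-(2 * u * ((r : ℚ) * s) + K) / (((r : ℚ) - 1) * ((s : ℚ) - 1)),
      -(u * ((r : ℚ) * s)) / (((r : ℚ) - 1) * ((s : ℚ) - 1)), ?_⟩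
    have hab' : ((r : ℝ) - 1) * ((s : ℝ) - 1) ≠ 0 := by
      have : ((((r : ℚ) - 1) * ((s : ℚ) - 1) : ℚ) : ℝ) ≠ 0 := by exact_mod_cast hab.ne'
      push_cast at this; exact this
    obtain ⟨hr1, hs1⟩ := mul_ne_zero_iff.1 hab'
    push_cast
    rw [hy2] at e
    field_simp
    linear_combination e
  have hlin : ((((r : ℚ) * s) - 2 * x * y : ℚ) : ℝ) * √2 =
      ((x ^ 2 + 2 * y ^ 2 - 2 * ((r : ℚ) * s) : ℚ) : ℝ) := by
    have := congrArg (fun z => z ^ 2) hxy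
    simp only [mul_pow, hQ, hy2] at this
    push_cast
    linear_combination this + (y : ℝ) ^ 2 * h2
  have hc : ((r : ℚ) * s) - 2 * x * y = 0 := by
    by_contra hne
    refine sqrt_two_irrat ((x ^ 2 + 2 * y ^ 2 - 2 * ((r : ℚ) * s)) / (((r : ℚ) * s) - 2 * x * y)) ?_
    have hne' : ((((r : ℚ) * s) - 2 * x * y : ℚ) : ℝ) ≠ 0 := by exact_mod_cast hne
    rw [Rat.cast_div, ← hlin, mul_div_cancel_left₀ _ hne', h2]
  rw [hc, Rat.cast_zero, zero_mul] at hlin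
  have hK0 : x ^ 2 + 2 * y ^ 2 - 2 * ((r : ℚ) * s) = 0 := Rat.cast_eq_zero.1 hlin.symm
  have hy0 : y ≠ 0 := fun hy => by
    rw [hy] at hc; nlinarith [hc]
  refine sqrt_two_irrat ((x - 2 * y) / y) ?_
  have : ((x - 2 * y) / y) ^ 2 = 2 := by
    field_simp
    linarith [hc, hK0]
  exact_mod_cast this

theorem twelve_false (hr : 2 ≤ r) (hs : 2 ≤ s) (h : Rel r s (√3)) (h' : Rel r s 1) : False := by
  obtain ⟨u, K, e, -, -⟩ := h.normal hr hs
  obtain ⟨u', K', e', -, -⟩ := h'.normal hr hs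
  have hR0 : 0 < √((r : ℝ) * s) := Real.sqrt_pos.2 (by positivity)
  have hr' : (2 : ℝ) ≤ r := by exact_mod_cast hr
  have hs' : (2 : ℝ) ≤ s := by exact_mod_cast hs
  have hab : (0 : ℝ) < ((r : ℝ) - 1) * ((s : ℝ) - 1) := mul_pos (by linarith) (by linarith)
  have h3 : √3 ^ 2 = 3 := Real.sq_sqrt (by norm_num)
  rw [h3] at e
  rw [one_pow, mul_one, mul_one] at e'
  refine sqrt_prime_irrat Nat.prime_three
    ((-(3 * u * ((r : ℚ) * s) + K)) / (-(u' * ((r : ℚ) * s) + K'))) ?_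
  have e1 : ((r : ℝ) - 1) * ((s : ℝ) - 1) * √((r : ℝ) * s) * √3 = -(3 * u * ((r : ℝ) * s) + K) := by
    linear_combination e
  have e2 : ((r : ℝ) - 1) * ((s : ℝ) - 1) * √((r : ℝ) * s) = -(u' * ((r : ℝ) * s) + K') := by
    linear_combination e'
  push_cast
  rw [← e1, ← e2, mul_div_cancel_left₀ _ (by positivity), h3]

end Cfsg.Agent.FeitHigman
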