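import Mathlib
import Cfsg.Agent.Lib.LieBN.Basic

/-!
# Chambers of a finite (B,N)-pair and the action of the simple adjacency operators
-/

set_option autoImplicit false

namespace Cfsg.Agent.FeitHigman

open Cfsg.Lib.LieBN

variable {G : Type*} [Group G] {P : Cfsg.BNPair G}

/-- The Weyl distance of two chambers. -/
noncomputable def dist (x y : G ⧸ P.B) : Weyl P := (bruhat (P := P) (x.out⁻¹ * y.out)).choose

theorem dist_spec (x y : G ⧸ P.B) : InC P (x.out⁻¹ * y.out) (dist x y) :=
  (bruhat (P := P) (x.out⁻¹ * y.out)).choose_spec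

theorem dist_mk {g h : G} {w : Weyl P} :
    dist (P := P) (QuotientGroup.mk g) (QuotientGroup.mk h) = w ↔ InC P (g⁻¹ * h) w := by
  obtain ⟨b, hb⟩ := QuotientGroup.mk_out_eq_mul P.B g
  obtain ⟨c, hc⟩ := QuotientGroup.mk_out_eq_mul P.B h
  have hd := dist_spec (P := P) (QuotientGroup.mk g) (QuotientGroup.mk h)
  rw [hb, hc] at hd
  have h2 : InC P (g⁻¹ * h) (dist (P := P) (QuotientGroup.mk g) (QuotientGroup.mk h)) := by
    have := (hd.mul_left b.2).mul_right (inv_mem c.2)
    simpa [mul_assoc] using this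
  exact ⟨fun e => e ▸ h2, fun hw => h2.unique hw⟩

theorem dist_smul (g : G) (x y : G ⧸ P.B) : dist (g • x) (g • y) = dist x y := by
  obtain ⟨a, rfl⟩ := QuotientGroup.mk_surjective x
  obtain ⟨b, rfl⟩ := QuotientGroup.mk_surjective y
  rw [MulAction.Quotient.smul_mk, MulAction.Quotient.smul_mk, dist_mk]
  have := dist_mk.1 (rfl : dist (P := P) (QuotientGroup.mk a) (QuotientGroup.mk b) = _)
  simpa [mul_assoc] using this

theorem dist_eq_one {x y : G ⧸ P.B} : dist x y = 1 ↔ x = y := by
  obtain ⟨a, rfl⟩ := QuotientGroup.mk_surjective x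
  obtain ⟨b, rfl⟩ := QuotientGroup.mk_surjective y
  rw [dist_mk, InC.one_iff, QuotientGroup.eq]

theorem dist_symm (x y : G ⧸ P.B) : dist y x = (dist x y)⁻¹ := by
  obtain ⟨a, rfl⟩ := QuotientGroup.mk_surjective x
  obtain ⟨b, rfl⟩ := QuotientGroup.mk_surjective y
  rw [dist_mk]
  have := (dist_mk.1 (rfl : dist (P := P) (QuotientGroup.mk a) (QuotientGroup.mk b) = _)).inv
  simpa [mul_inv_rev] using this

theorem dist_adj_symm {s : P.S} {x y : G ⧸ P.B} (h : dist x y = sref P s) : dist y x = sref P s := by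
  rw [dist_symm, h, (invGen P).inv_eq]

theorem exists_between {x z : G ⧸ P.B} {u v : Weyl P} (h : dist x z = u * v) :
    ∃ y, dist x y = u ∧ dist y z = v := by
  obtain ⟨a, rfl⟩ := QuotientGroup.mk_surjective x
  obtain ⟨c, rfl⟩ := QuotientGroup.mk_surjective z
  obtain ⟨g₁, g₂, h1, h2, e⟩ := (dist_mk.1 h).factor
  refine ⟨QuotientGroup.mk (a * g₁), dist_mk.2 (by simpa using h1), dist_mk.2 ?_⟩
  rw [show (a * g₁)⁻¹ * c = g₂ by rw [mul_inv_rev, mul_assoc, e]; simp]
  exact h2

theorem dist_adj {s : P.S} {x y z : G ⧸ P.B} (h : dist x y = sref P s) :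
    dist x z = sref P s * dist y z ∨ dist x z = dist y z := by
  obtain ⟨a, rfl⟩ := QuotientGroup.mk_surjective x
  obtain ⟨b, rfl⟩ := QuotientGroup.mk_surjective y
  obtain ⟨c, rfl⟩ := QuotientGroup.mk_surjective z
  have := InC.mul_sref (dist_mk.1 h)
    (dist_mk.1 (rfl : dist (P := P) (QuotientGroup.mk b) (QuotientGroup.mk c) = _))
  rw [mul_assoc, mul_inv_cancel_left] at this
  rcases this with k | k
  · exact Or.inl (dist_mk.2 k)
  · exact Or.inr (dist_mk.2 k)

theorem dist_adj_up {s : P.S} {x y z : G ⧸ P.B} (h : dist x y = sref P s)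
    (hl : wlen (sref P) (dist y z) ≤ wlen (sref P) (sref P s * dist y z)) :
    dist x z = sref P s * dist y z := by
  obtain ⟨a, rfl⟩ := QuotientGroup.mk_surjective x
  obtain ⟨b, rfl⟩ := QuotientGroup.mk_surjective y
  obtain ⟨c, rfl⟩ := QuotientGroup.mk_surjective z
  have := InC.mul_sref_of_le hl (dist_mk.1 h)
    (dist_mk.1 (rfl : dist (P := P) (QuotientGroup.mk b) (QuotientGroup.mk c) = _))
  rw [mul_assoc, mul_inv_cancel_left] at this
  exact dist_mk.2 this

theorem adj_adj {s : P.S} {x y y' : G ⧸ P.B} (h : dist x y = sref P s) (h' : dist x y' = sref P s)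
    (hne : y ≠ y') : dist y y' = sref P s := by
  rcases dist_adj (dist_adj_symm h) (z := y') with e | e
  · rw [h', sref_mul_self, dist_eq_one] at e
    exact absurd e hne
  · rw [h'] at e; exact e

variable (P) [Fintype (G ⧸ P.B)]

open Classical in
/-- Number of chambers at a given distance from a chamber. -/
noncomputable def sph (x : G ⧸ P.B) (w : Weyl P) : Finset (G ⧸ P.B) :=
  Finset.univ.filter fun y => dist x y = w

variable {P}

theorem mem_sph {x y : G ⧸ P.B} {w : Weyl P} : y ∈ sph P x w ↔ dist x y = w := by simp [sph]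

theorem card_sph_eq (x x' : G ⧸ P.B) (w : Weyl P) : (sph P x w).card = (sph P x' w).card := by
  obtain ⟨g, rfl⟩ := MulAction.exists_smul_eq G x x'
  refine Finset.card_bij (fun y _ => g • y) (fun y hy => ?_) (fun a _ b _ e => ?_) fun y hy => ?_
  · rw [mem_sph] at hy ⊢; rwa [dist_smul]
  · exact MulAction.injective g e
  · refine ⟨g⁻¹ • y, ?_, smul_inv_smul g y⟩
    rw [mem_sph] at hy ⊢
    rwa [← dist_smul g, smul_inv_smul]

variable (P) in
/-- Valency. -/
noncomputable def val (w : Weyl P) : ℕ := (sph P (QuotientGroup.mk 1 : G ⧸ P.B) w).card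

theorem card_sph (x : G ⧸ P.B) (w : Weyl P) : (sph P x w).card = val P w := card_sph_eq _ _ _

theorem val_one : val P 1 = 1 := by
  rw [val, Finset.card_eq_one]
  exact ⟨QuotientGroup.mk 1, by ext y; rw [mem_sph, Finset.mem_singleton, dist_eq_one]; exact eq_comm⟩

theorem two_le_val (s : P.S) : 2 ≤ val P (sref P s) := by
  obtain ⟨g, g', hg, hg', hgg⟩ := exists_sref_mul_sref (P := P) s
  have h1 : dist (P := P) (QuotientGroup.mk 1) (QuotientGroup.mk g) = sref P s :=
    dist_mk.2 (by simpa using hg)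
  have h2 : dist (P := P) (QuotientGroup.mk 1) (QuotientGroup.mk (g * g')) = sref P s :=
    dist_mk.2 (by simpa using hgg)
  have h3 : dist (P := P) (QuotientGroup.mk g) (QuotientGroup.mk (g * g')) = sref P s :=
    dist_mk.2 (by simpa using hg')
  have hne : (QuotientGroup.mk g : G ⧸ P.B) ≠ QuotientGroup.mk (g * g') := fun e => by
    rw [dist_eq_one.2 e] at h3
    exact sref_ne_one s h3.symm
  exact Finset.one_lt_card.2 ⟨_, mem_sph.2 h1, _, mem_sph.2 h2, hne⟩

theorem val_mul {s : P.S} {w : Weyl P}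
    (hl : wlen (sref P) w < wlen (sref P) (sref P s * w)) :
    val P (sref P s * w) = val P (sref P s) * val P w := by
  classical
  have e : sph P (QuotientGroup.mk 1 : G ⧸ P.B) (sref P s * w) =
      (sph P (QuotientGroup.mk 1 : G ⧸ P.B) (sref P s)).biUnion fun y => sph P y w := by
    ext z
    simp only [Finset.mem_biUnion, mem_sph]
    constructor
    · intro h; exact exists_between h
    · rintro ⟨y, h1, h2⟩
      rw [← h2] at hl ⊢
      exact dist_adj_up h1 hl.le
  rw [val, e, Finset.card_biUnion]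
  · rw [Finset.sum_congr rfl fun y _ => card_sph y w, Finset.sum_const, smul_eq_mul]
    rfl
  · intro y hy y' hy' hne
    rw [Function.onFun, Finset.disjoint_left]
    intro z hz hz'
    rw [Finset.mem_coe, mem_sph] at hy hy'
    rw [mem_sph] at hz hz'
    have := dist_adj_up (z := z) (adj_adj hy hy' hne) (by rw [hz']; exact hl.le)
    rw [hz, hz'] at this
    rw [← this] at hl
    exact lt_irrefl _ hl

variable (P) in
/-- The matrix with entries a function of the Weyl distance. -/
noncomputable def dmat (f : Weyl P → ℝ) : Matrix (G ⧸ P.B) (G ⧸ P.B) ℝ :=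
  Matrix.of fun x y => f (dist x y)

open Classical in
/-- The adjacency function of a simple reflection. -/
noncomputable def adjFun (s : P.S) : Weyl P → ℝ := fun w => if w = sref P s then 1 else 0

variable (P) in
/-- The action of an adjacency matrix on distance functions. -/
noncomputable def hecke (s : P.S) (f : Weyl P → ℝ) : Weyl P → ℝ := fun v =>
  if wlen (sref P) v < wlen (sref P) (sref P s * v) then (val P (sref P s) : ℝ) * f (sref P s * v)
  else f (sref P s * v) + ((val P (sref P s) : ℝ) - 1) * f v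

theorem adj_mul_dmat (s : P.S) (f : Weyl P → ℝ) :
    dmat P (adjFun s) * dmat P f = dmat P (hecke P s f) := by
  classical
  ext x z
  have e : (dmat P (adjFun s) * dmat P f) x z = ∑ y ∈ sph P x (sref P s), f (dist y z) := by
    rw [Matrix.mul_apply]
    simp [dmat, adjFun, sph, Finset.sum_filter]
  rw [e, dmat, Matrix.of_apply, hecke]
  by_cases hup : wlen (sref P) (dist x z) < wlen (sref P) (sref P s * dist x z)
  · rw [if_pos hup, Finset.sum_congr rfl (fun y hy => by
      rw [dist_adj_up (dist_adj_symm (mem_sph.1 hy)) hup.le]), Finset.sum_const, nsmul_eq_mul,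
      card_sph]
  · rw [if_neg hup]
    have hlt : wlen (sref P) (sref P s * dist x z) < wlen (sref P) (dist x z) :=
      lt_of_le_of_ne (not_lt.1 hup) (wlen_sref_mul_ne s _)
    obtain ⟨y0, h1, h2⟩ := exists_between (P := P) (x := x) (z := z) (u := sref P s)
      (v := sref P s * dist x z) ((invGen P).mul_mul_self _ _).symm
    have hothers : ∀ y ∈ (sph P x (sref P s)).erase y0, dist y z = dist x z := by
      intro y hy
      obtain ⟨hne, hy'⟩ := Finset.mem_erase.1 hy
      have := dist_adj_up (z := z) (adj_adj (mem_sph.1 hy') h1 hne)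
        (by rw [h2, (invGen P).mul_mul_self]; exact hlt.le)
      rwa [h2, (invGen P).mul_mul_self] at this
    have h0 : y0 ∈ sph P x (sref P s) := mem_sph.2 h1
    rw [← Finset.add_sum_erase _ _ h0, h2, Finset.sum_congr rfl (fun y hy => by rw [hothers y hy]),
      Finset.sum_const, Finset.card_erase_of_mem h0, nsmul_eq_mul, card_sph,
      Nat.cast_sub (by have := two_le_val s; omega), Nat.cast_one]

theorem trace_dmat (f : Weyl P → ℝ) :
    (dmat P f).trace = (Fintype.card (G ⧸ P.B) : ℝ) * f 1 := by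
  simp [Matrix.trace, dmat, dist_eq_one.2 rfl]

theorem trace_dmat_mul [Fintype (Weyl P)] {f : Weyl P → ℝ} (hf : ∀ w, f w⁻¹ = f w) :
    (dmat P f * dmat P f).trace =
      (Fintype.card (G ⧸ P.B) : ℝ) * ∑ w, (val P w : ℝ) * f w ^ 2 := by
  classical
  have e : ∀ x : G ⧸ P.B, (dmat P f * dmat P f) x x = ∑ w, (val P w : ℝ) * f w ^ 2 := by
    intro x
    rw [Matrix.mul_apply, ← Finset.sum_fiberwise Finset.univ (fun y => dist x y)]
    refine Finset.sum_congr rfl fun w _ => ?_
    rw [← card_sph x w, ← nsmul_eq_mul, ← Finset.sum_const]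
    refine Finset.sum_congr rfl fun y hy => ?_
    rw [mem_sph.1 (show y ∈ sph P x w by simpa [sph] using hy) |> fun e => (e : dist x y = w) |>
      fun e => show dmat P f x y = f w by rw [dmat, Matrix.of_apply, e]]
    rw [dmat, Matrix.of_apply, dist_symm, (Finset.mem_filter.1 hy).2, hf, sq]
  simp [Matrix.trace, e]

/-- The trace of an idempotent matrix is a natural number. -/
theorem exists_natCast_eq_trace {ι : Type*} [Fintype ι] [DecidableEq ι] {M : Matrix ι ι ℝ}
    (h : M * M = M) : ∃ N : ℕ, (N : ℝ) = M.trace := by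
  have hi : IsIdempotentElem (Matrix.toLin' M) := by
    show Matrix.toLin' M * Matrix.toLin' M = Matrix.toLin' M
    rw [Module.End.mul_eq_comp, ← Matrix.toLin'_mul, h]
  refine ⟨Module.finrank ℝ (LinearMap.range (Matrix.toLin' M)), ?_⟩
  rw [← Matrix.trace_toLin'_eq,
    (LinearMap.IsIdempotentElem.isProj_range _ hi).trace]

end Cfsg.Agent.FeitHigman
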