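import Mathlib
import Cfsg.Agent.Lib.LieBN.Exchange

/-!
# Lengths in a finite group generated by two involutions with the exchange condition
-/

set_option autoImplicit false

namespace Cfsg.Agent.FeitHigman

open Cfsg.Lib.LieBN

variable {W : Type*} [Group W]

/-- The alternating product `u v u ⋯` with `j` factors. -/
def alt : W → W → ℕ → W
  | _, _, 0 => 1
  | u, v, j + 1 => u * alt v u j

@[simp] theorem alt_zero (u v : W) : alt u v 0 = 1 := rfl

theorem alt_succ (u v : W) (j : ℕ) : alt u v (j + 1) = u * alt v u j := rfl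

theorem alt_even (u v : W) (k : ℕ) : alt u v (2 * k) = (u * v) ^ k := by
  induction k with
  | zero => simp
  | succ k ih =>
    rw [show 2 * (k + 1) = 2 * k + 1 + 1 from rfl, alt_succ, alt_succ, ih, pow_succ', mul_assoc]

theorem alt_odd (u v : W) (k : ℕ) : alt u v (2 * k + 1) = (u * v) ^ k * u := by
  induction k with
  | zero => simp [alt]
  | succ k ih =>
    rw [show 2 * (k + 1) + 1 = 2 * k + 1 + 1 + 1 from rfl, alt_succ, alt_succ, ih, pow_succ']
    simp [mul_assoc]

theorem mul_alt {u : W} (v : W) (hu : u * u = 1) (j : ℕ) : u * alt u v (j + 1) = alt v u j := by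
  rw [alt_succ, ← mul_assoc, hu, one_mul]

theorem inv_pow_eq {u v : W} (hu : u * u = 1) (hv : v * v = 1) (k : ℕ) :
    ((u * v) ^ k)⁻¹ = (v * u) ^ k := by
  rw [← inv_pow, mul_inv_rev, inv_eq_of_mul_eq_one_right hv, inv_eq_of_mul_eq_one_right hu]

theorem alt_inv_even {u v : W} (hu : u * u = 1) (hv : v * v = 1) (k : ℕ) :
    (alt u v (2 * k))⁻¹ = alt v u (2 * k) := by
  rw [alt_even, alt_even, inv_pow_eq hu hv]

theorem alt_inv_odd {u v : W} (hu : u * u = 1) (hv : v * v = 1) (k : ℕ) :
    (alt u v (2 * k + 1))⁻¹ = alt u v (2 * k + 1) := by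
  conv_rhs => rw [alt_succ, alt_even]
  rw [alt_odd, mul_inv_rev, inv_pow_eq hu hv, inv_eq_of_mul_eq_one_right hu]

variable {ι : Type*} {σ : ι → W}

theorem alt_len_succ_le (h : Exch σ) (s t : ι) (j : ℕ) :
    wlen σ (alt (σ s) (σ t) (j + 1)) ≤ wlen σ (alt (σ t) (σ s) j) + 1 := by
  rw [alt_succ]; exact h.toInvGen.wlen_mul_le_succ _ _

theorem alt_len_le (h : Exch σ) : ∀ (j : ℕ) (s t : ι), wlen σ (alt (σ s) (σ t) j) ≤ j
  | 0, _, _ => by simp [h.toInvGen.wlen_eq_zero.2]
  | j + 1, s, t => by
    have := alt_len_succ_le h s t j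
    have := alt_len_le h j t s
    omega

theorem alt_len_parity (h : Exch σ) : ∀ (j : ℕ) (s t : ι),
    wlen σ (alt (σ s) (σ t) j) % 2 = j % 2
  | 0, _, _ => by simp [h.toInvGen.wlen_eq_zero.2]
  | j + 1, s, t => by
    have := alt_len_parity h j t s
    rw [alt_succ]
    rcases h.cases_len s (alt (σ t) (σ s) j) with e | e <;> omega

/-- Two generators. -/
def TwoGen (s t : ι) : Prop := s ≠ t ∧ ∀ i, i = s ∨ i = t

theorem TwoGen.symm {s t : ι} (hst : TwoGen s t) : TwoGen t s :=
  ⟨hst.1.symm, fun i => (hst.2 i).symm⟩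

theorem exists_alt (h : Exch σ) {s t : ι} (hst : TwoGen s t) (w : W) :
    w = alt (σ t) (σ s) (wlen σ w) ∨ w = alt (σ s) (σ t) (wlen σ w) := by
  induction hk : wlen σ w generalizing w with
  | zero => left; rw [h.toInvGen.wlen_eq_zero.1 hk]; rfl
  | succ k ih =>
    obtain ⟨L, hL, rfl⟩ := h.toInvGen.exists_reduced w
    rw [hk] at hL
    obtain ⟨i, L, rfl⟩ : ∃ i L', L = i :: L' := by
      cases L with
      | nil => simp at hL
      | cons a l => exact ⟨a, l, rfl⟩
    have hlen : wlen σ (wprod σ L) = k := by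
      have h1 := wlen_le (σ := σ) L
      have h2 := h.toInvGen.wlen_mul_le_succ i (wprod σ L)
      rw [wprod_cons] at hk
      simp at hL
      omega
    rw [wprod_cons] at hk ⊢
    have key : ∀ u v : ι, i = u → wprod σ L = alt (σ u) (σ v) k → wprod σ L = alt (σ v) (σ u) k := by
      intro u v hiu e
      subst hiu
      rcases k with _ | k
      · exact e
      · exfalso
        rw [e, mul_alt _ (h.toInvGen.mul_self i)] at hk
        have := alt_len_le h k v i
        omega
    rcases ih _ hlen with e | e <;> rcases hst.2 i with hi | hi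
    · right; rw [hi, e, ← alt_succ]
    · left; rw [hi, key t s hi e, ← alt_succ]
    · right; rw [hi, key s t hi e, ← alt_succ]
    · left; rw [hi, e, ← alt_succ]

/-- The order of the product of the generators. -/
noncomputable def mm (σ : ι → W) (s t : ι) : ℕ := orderOf (σ t * σ s)

theorem mm_symm (h : Exch σ) (s t : ι) : mm σ t s = mm σ s t := by
  rw [mm, mm, ← orderOf_inv, mul_inv_rev, h.toInvGen.inv_eq, h.toInvGen.inv_eq]

theorem pow_ne (σ : ι → W) (s t : ι) {p : ℕ} (h0 : 0 < p) (hp : p < mm σ s t) :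
    (σ t * σ s) ^ p ≠ 1 := pow_ne_one_of_lt_orderOf h0.ne' hp

theorem alt_top (h : Exch σ) (s t : ι) :
    alt (σ t) (σ s) (mm σ s t) = alt (σ s) (σ t) (mm σ s t) := by
  have hs := h.toInvGen.mul_self s
  have ht := h.toInvGen.mul_self t
  have h1 : (σ t * σ s) ^ mm σ s t = 1 := pow_orderOf_eq_one _
  rcases Nat.even_or_odd' (mm σ s t) with ⟨k, hk | hk⟩ <;> rw [hk] at h1 ⊢
  · rw [alt_even, alt_even, ← inv_pow_eq ht hs k, eq_inv_iff_mul_eq_one, ← pow_add, ← two_mul]
    exact h1
  · rw [alt_odd, alt_odd, ← inv_pow_eq ht hs k, eq_inv_mul_iff_mul_eq, ← mul_assoc, ← pow_add,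
      ← two_mul]
    have e : (σ t * σ s) ^ (2 * k) * σ t * σ s = 1 := by rw [mul_assoc, ← pow_succ]; exact h1
    exact (eq_inv_of_mul_eq_one_left e).trans (h.toInvGen.inv_eq s)

/-- `alt` values with equal parity and different indices differ. -/
theorem alt_ne_alt (h : Exch σ) (s t : ι) {i j : ℕ} (hij : i < j) (hj : j ≤ mm σ s t)
    (hpar : i % 2 = j % 2) :
    alt (σ t) (σ s) j ≠ alt (σ t) (σ s) i ∧ alt (σ t) (σ s) j ≠ alt (σ s) (σ t) i := by
  have hs := h.toInvGen.mul_self s
  have ht := h.toInvGen.mul_self t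
  rcases Nat.even_or_odd' j with ⟨k, rfl | rfl⟩ <;> rcases Nat.even_or_odd' i with ⟨l, rfl | rfl⟩ <;>
    try omega
  · refine ⟨fun e => pow_ne σ s t (p := k - l) (by omega) (by omega) ?_,
      fun e => pow_ne σ s t (p := k + l) (by omega) (by omega) ?_⟩
    · rw [alt_even, alt_even] at e
      rw [pow_sub _ (by omega : l ≤ k), e, mul_inv_cancel]
    · rw [alt_even, alt_even, ← inv_pow_eq ht hs l] at e
      rw [pow_add, e, inv_mul_cancel]
  · refine ⟨fun e => pow_ne σ s t (p := k - l) (by omega) (by omega) ?_,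
      fun e => pow_ne σ s t (p := k + l + 1) (by omega) (by omega) ?_⟩
    · rw [alt_odd, alt_odd, mul_left_inj] at e
      rw [pow_sub _ (by omega : l ≤ k), e, mul_inv_cancel]
    · rw [alt_odd, alt_odd, ← inv_pow_eq ht hs l] at e
      have e2 : (σ t * σ s) ^ (k + l) * σ t = σ s := by
        rw [add_comm, pow_add, mul_assoc, e, ← mul_assoc, mul_inv_cancel, one_mul]
      rw [pow_succ, ← mul_assoc, e2, hs]

theorem alt_len (h : Exch σ) {s t : ι} (hst : TwoGen s t) {j : ℕ} (hj : j ≤ mm σ s t) :
    wlen σ (alt (σ t) (σ s) j) = j := by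
  by_contra hne
  have hle := alt_len_le h j t s
  have hp := alt_len_parity h j t s
  obtain ⟨h1, h2⟩ := alt_ne_alt h s t (i := wlen σ (alt (σ t) (σ s) j)) (by omega) hj hp
  exact (exists_alt h hst _).elim h1 h2

theorem alt_len' (h : Exch σ) {s t : ι} (hst : TwoGen s t) {j : ℕ} (hj : j ≤ mm σ s t) :
    wlen σ (alt (σ s) (σ t) j) = j :=
  alt_len h hst.symm (by rwa [mm_symm h])

theorem wlen_le_mm (h : Exch σ) {s t : ι} (hst : TwoGen s t) [Finite W] (w : W) :
    wlen σ w ≤ mm σ s t := by
  by_contra hc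
  push Not at hc
  have hpos : 0 < mm σ s t := orderOf_pos _
  have bad : ∀ (u v : ι), TwoGen u v → mm σ u v = mm σ s t → ∀ j, mm σ s t < j →
      wlen σ (alt (σ v) (σ u) j) < j := by
    intro u v huv hm j hj
    induction j, hj using Nat.le_induction generalizing u v with
    | base =>
      obtain ⟨m', hm'⟩ := Nat.exists_eq_succ_of_ne_zero hpos.ne'
      rw [hm'] at hm ⊢
      have e := alt_top h u v
      rw [hm] at e
      rw [alt_succ, ← e, mul_alt _ (h.toInvGen.mul_self v)]
      have := alt_len_le h m' u v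
      omega
    | succ j hj ih =>
      have := alt_len_succ_le h v u j
      have := ih v u huv.symm (by rw [mm_symm h, hm])
      omega
  rcases exists_alt h hst w with e | e
  · have := bad s t hst rfl _ hc
    rw [← e] at this
    omega
  · have := bad t s hst.symm (mm_symm h s t) _ hc
    rw [← e] at this
    omega

theorem two_le_mm (h : Exch σ) {s t : ι} (hinj : σ s ≠ σ t) [Finite W] : 2 ≤ mm σ s t := by
  have h0 : 0 < mm σ s t := orderOf_pos _
  have h1 : mm σ s t ≠ 1 := fun e => hinj (by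
    have e' : σ t * σ s = 1 := orderOf_eq_one_iff.1 e
    rw [← h.toInvGen.inv_eq t]
    exact (inv_eq_of_mul_eq_one_right e').symm)
  omega

/-- The pairs `x j`, `y (j+1)` enumerate the group. -/
noncomputable def enum (σ : ι → W) (s t : ι) : Fin (mm σ s t) × Bool → W :=
  fun p => if p.2 then alt (σ s) (σ t) (p.1.val + 1) else alt (σ t) (σ s) p.1.val

theorem enum_bijective (h : Exch σ) {s t : ι} (hst : TwoGen s t) [Finite W] :
    Function.Bijective (enum σ s t) := by
  constructor
  · rintro ⟨⟨i, hi⟩, b⟩ ⟨⟨j, hj⟩, c⟩ e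
    have e' := congrArg (wlen σ) e
    have key : ∀ i j, i < mm σ s t → alt (σ t) (σ s) i ≠ alt (σ s) (σ t) (j + 1) ∨ i ≠ j + 1 := by
      intro i j hi
      by_cases hij : i = j + 1
      · left
        subst hij
        intro e
        have hs := h.toInvGen.mul_self s
        have ht := h.toInvGen.mul_self t
        refine pow_ne σ s t (p := j + 1) (by omega) hi ?_
        rcases Nat.even_or_odd' (j + 1) with ⟨k, hk | hk⟩ <;> rw [hk] at e ⊢
        · rw [alt_even, alt_even, ← inv_pow_eq ht hs k] at e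
          rw [two_mul, pow_add]
          nth_rewrite 1 [e]
          exact inv_mul_cancel _
        · rw [alt_odd, alt_odd, ← inv_pow_eq ht hs k] at e
          rw [show 2 * k + 1 = k + (k + 1) by omega, pow_add, pow_succ,
            show (σ t * σ s) ^ k * ((σ t * σ s) ^ k * (σ t * σ s)) =
              (σ t * σ s) ^ k * ((σ t * σ s) ^ k * σ t) * σ s by simp [mul_assoc], e, ← mul_assoc,
            mul_inv_cancel, one_mul, hs]
      · exact Or.inr hij
    cases b <;> cases c <;> simp only [enum, Bool.false_eq_true, if_false, if_true] at e e'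
    · rw [alt_len h hst hi.le, alt_len h hst hj.le] at e'
      simp [e']
    · rw [alt_len h hst hi.le, alt_len' h hst hj] at e'
      exact ((key i j hi).resolve_right (not_not.2 e') e).elim
    · rw [alt_len' h hst hi, alt_len h hst hj.le] at e'
      exact ((key j i hj).resolve_right (not_not.2 e'.symm) e.symm).elim
    · rw [alt_len' h hst hi, alt_len' h hst hj] at e'
      simp at e'
      simp [e']
  · intro w
    have hw := wlen_le_mm h hst w
    have hpos : 0 < mm σ s t := orderOf_pos _
    have hx : ∀ k < mm σ s t, ∃ p, enum σ s t p = alt (σ t) (σ s) k :=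
      fun k hk => ⟨(⟨k, hk⟩, false), by simp [enum]⟩
    have hy : ∀ k ≤ mm σ s t, ∃ p, enum σ s t p = alt (σ s) (σ t) k := by
      intro k hk
      rcases k with _ | k
      · exact hx 0 hpos
      · exact ⟨(⟨k, hk⟩, true), by simp [enum]⟩
    rcases exists_alt h hst w with e | e
    · rcases Nat.lt_or_ge (wlen σ w) (mm σ s t) with hlt | hge
      · obtain ⟨p, hp⟩ := hx _ hlt
        exact ⟨p, hp.trans e.symm⟩
      · have em : wlen σ w = mm σ s t := by omega
        obtain ⟨p, hp⟩ := hy _ le_rfl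
        refine ⟨p, ?_⟩
        rw [hp, e, em, alt_top h s t]
    · obtain ⟨p, hp⟩ := hy _ hw
      exact ⟨p, hp.trans e.symm⟩

theorem natCard_eq (h : Exch σ) {s t : ι} (hst : TwoGen s t) [Finite W] :
    Nat.card W = 2 * mm σ s t := by
  rw [← Nat.card_congr (Equiv.ofBijective _ (enum_bijective h hst)), Nat.card_prod]
  simp [mul_comm]

end Cfsg.Agent.FeitHigman
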