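import Mathlib

/-!
# Scalar sequences for the rank two eigenvector
-/

set_option autoImplicit false

open Real

namespace Cfsg.Agent.FeitHigman

/-- The scalar sequence `cos iθ + K sin iθ` with prescribed value `u` at `1`. -/
noncomputable def gseq (θ u : ℝ) (i : ℕ) : ℝ :=
  cos (i * θ) + (u - cos θ) / sin θ * sin (i * θ)

theorem gseq_zero (θ u : ℝ) : gseq θ u 0 = 1 := by simp [gseq]

theorem gseq_one {θ : ℝ} (u : ℝ) (h : sin θ ≠ 0) : gseq θ u 1 = u := by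
  simp [gseq, div_mul_cancel₀ _ h]

theorem gseq_rec (θ u : ℝ) (i : ℕ) :
    gseq θ u (i + 2) + gseq θ u i = 2 * cos θ * gseq θ u (i + 1) := by
  unfold gseq
  push_cast
  have e1 : ((i : ℝ) + 2) * θ = ((i : ℝ) + 1) * θ + θ := by ring
  have e2 : (i : ℝ) * θ = ((i : ℝ) + 1) * θ - θ := by ring
  rw [e1, e2, cos_add, cos_sub, sin_add, sin_sub]
  ring

theorem gseq_invariant {θ : ℝ} (u : ℝ) (h : sin θ ≠ 0) (i : ℕ) :
    gseq θ u i ^ 2 - 2 * cos θ * gseq θ u i * gseq θ u (i + 1) + gseq θ u (i + 1) ^ 2 =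
      u ^ 2 - 2 * cos θ * u + 1 := by
  induction i with
  | zero => rw [gseq_zero, gseq_one u h]; ring
  | succ i ih =>
    have e : gseq θ u (i + 2) = 2 * cos θ * gseq θ u (i + 1) - gseq θ u i := by
      linarith [gseq_rec θ u i]
    rw [e, ← ih]
    ring

theorem gseq_sum_sq {θ : ℝ} (u : ℝ) (h : sin θ ≠ 0) (n : ℕ) :
    (4 - (2 * cos θ) ^ 2) * ∑ i ∈ Finset.range n, gseq θ u (i + 1) ^ 2 =
      2 * n * (u ^ 2 - 2 * cos θ * u + 1) + 2 * gseq θ u n ^ 2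
        - 2 * cos θ * gseq θ u n * gseq θ u (n + 1) - 2 + 2 * cos θ * u := by
  induction n with
  | zero => simp [gseq_zero, gseq_one u h]
  | succ n ih =>
    have e : gseq θ u (n + 2) = 2 * cos θ * gseq θ u (n + 1) - gseq θ u n := by
      linarith [gseq_rec θ u n]
    rw [Finset.sum_range_succ, mul_add, ih, e, ← gseq_invariant u h n]
    push_cast
    ring

theorem gseq_half_even {θ : ℝ} (u : ℝ) (hθ : sin θ ≠ 0) {d : ℕ}
    (h : sin ((d : ℝ) * θ) = 0) :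
    gseq θ u (d + 1) = gseq θ u d * u ∧ gseq θ u d ^ 2 = 1 ∧
      ∀ e, d = e + 1 → gseq θ u e = gseq θ u d * (2 * cos θ - u) := by
  have hd : gseq θ u d = cos ((d : ℝ) * θ) := by simp [gseq, h]
  have h1 : gseq θ u (d + 1) = gseq θ u d * u := by
    rw [hd]; unfold gseq; push_cast
    rw [add_mul, one_mul, cos_add, sin_add, h]
    field_simp
    ring
  refine ⟨h1, ?_, fun e he => ?_⟩
  · rw [hd]; nlinarith [sin_sq_add_cos_sq ((d : ℝ) * θ)]
  · subst he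
    have := gseq_rec θ u e
    rw [show e + 2 = e + 1 + 1 from rfl, h1] at this
    linarith

theorem gseq_half_odd {θ : ℝ} (q : ℝ) (hq : q + 1 ≠ 0) (hθ : sin θ ≠ 0) {d : ℕ}
    (hs : sin (((2 * d + 1 : ℕ) : ℝ) * θ) = 0) (hc : cos (((2 * d + 1 : ℕ) : ℝ) * θ) = 1) :
    gseq θ ((q - 1 + q * (2 * cos θ)) / (q + 1)) (d + 1) =
      q * gseq θ ((q - 1 + q * (2 * cos θ)) / (q + 1)) d := by
  unfold gseq
  push_cast at hs hc ⊢
  have e1 : ((d : ℝ) + 1) * θ = (2 * (d : ℝ) + 1) * θ - (d : ℝ) * θ := by ring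
  have hcs : cos (((d : ℝ) + 1) * θ) = cos ((d : ℝ) * θ) := by rw [e1, cos_sub, hs, hc]; ring
  have hsn : sin (((d : ℝ) + 1) * θ) = -sin ((d : ℝ) * θ) := by rw [e1, sin_sub, hs, hc]; ring
  have hsum : sin ((d : ℝ) * θ) * cos θ + cos ((d : ℝ) * θ) * sin θ = -sin ((d : ℝ) * θ) := by
    rw [← hsn, add_mul, one_mul, sin_add]
  rw [hcs, hsn]
  field_simp
  linear_combination (1 - q ^ 2) * hsum

end Cfsg.Agent.FeitHigman
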