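import Mathlib
import Cfsg.Agent.Lib.FeitHigman.Dihedral
import Cfsg.Agent.Lib.FeitHigman.Chambers
import Cfsg.Agent.Lib.FeitHigman.Trig

/-!
# Rationality of eigenspace multiplicities for a rank two (B,N)-pair
-/

set_option autoImplicit false

namespace Cfsg.Agent.FeitHigman

open Cfsg.Lib.LieBN Polynomial

variable {G : Type*} [Group G] [Finite G] {P : Cfsg.BNPair G}

local notation "σ" => sref P

section rankTwo

variable {s t : P.S} (hst : TwoGen s t)
include hst

local notation "xw" => alt (σ t) (σ s)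
local notation "yw" => alt (σ s) (σ t)
local notation "mmm" => mm σ s t
local notation "qs" => (val P (σ s) : ℝ)
local notation "qt" => (val P (σ t) : ℝ)

theorem sref_ne : σ s ≠ σ t := fun e => hst.1 (sref_inj P e)

theorem two_le_mmm : 2 ≤ mmm := two_le_mm exch (sref_ne hst)

/-- A function on the Weyl group constant on double cosets of the first generator. -/
noncomputable def coeFun (C : ℕ → ℝ) : Weyl P → ℝ := fun w =>
  C ((((Equiv.ofBijective _ (enum_bijective exch hst)).symm w).1.val + 1) / 2)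

theorem coeFun_x (C : ℕ → ℝ) {j : ℕ} (hj : j < mmm) :
    coeFun hst C (xw j) = C ((j + 1) / 2) := by
  have e : (Equiv.ofBijective _ (enum_bijective exch hst)).symm (xw j) = (⟨j, hj⟩, false) :=
    (Equiv.symm_apply_eq _).2 rfl
  rw [coeFun, e]

theorem coeFun_y (C : ℕ → ℝ) {j : ℕ} (hj : j ≤ mmm) : coeFun hst C (yw j) = C (j / 2) := by
  rcases j with _ | j
  · exact coeFun_x hst C (j := 0) (lt_of_lt_of_le two_pos (two_le_mmm hst))
  · have e : (Equiv.ofBijective _ (enum_bijective exch hst)).symm (yw (j + 1)) = (⟨j, hj⟩, true) :=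
      (Equiv.symm_apply_eq _).2 rfl
    rw [coeFun, e]

theorem coeFun_top (C : ℕ → ℝ) : coeFun hst C (xw mmm) = C (mmm / 2) := by
  rw [alt_top exch s t, coeFun_y hst C le_rfl]

theorem coeFun_congr {C D : ℕ → ℝ} (h : ∀ i, i ≤ mmm / 2 → C i = D i) :
    coeFun hst C = coeFun hst D := funext fun w => h _ (by
  have := ((Equiv.ofBijective _ (enum_bijective exch hst)).symm w).1.isLt
  omega)

theorem forall_weyl {p : Weyl P → Prop}
    (hx : ∀ j < mmm, p (xw j)) (hy : ∀ j < mmm, p (yw (j + 1))) (w : Weyl P) : p w := by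
  obtain ⟨⟨⟨j, hj⟩, b⟩, rfl⟩ := (enum_bijective exch hst).2 w
  cases b
  · exact hx j hj
  · exact hy j hj

theorem coeFun_inv (C : ℕ → ℝ) (w : Weyl P) : coeFun hst C w⁻¹ = coeFun hst C w := by
  have hs := sref_mul_self P s
  have ht := sref_mul_self P t
  refine forall_weyl hst (p := fun w => coeFun hst C w⁻¹ = coeFun hst C w) (fun j hj => ?_)
    (fun j hj => ?_) w
  · rcases Nat.even_or_odd' j with ⟨k, rfl | rfl⟩
    · rw [alt_inv_even ht hs, coeFun_x hst C hj, coeFun_y hst C hj.le]; congr 1; omega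
    · rw [alt_inv_odd ht hs]
  · rcases Nat.even_or_odd' (j + 1) with ⟨k, hk | hk⟩
    · rw [hk, alt_inv_even hs ht, coeFun_y hst C (by omega)]
      rcases Nat.lt_or_ge (2 * k) mmm with h | h
      · rw [coeFun_x hst C h]; congr 1; omega
      · rw [show 2 * k = mmm by omega, coeFun_top hst C]
    · rw [hk, alt_inv_odd hs ht]

theorem up_a {j : ℕ} (hj : j < mmm) : wlen σ (xw j) < wlen σ (σ s * xw j) := by
  rw [← alt_succ, alt_len exch hst hj.le, alt_len' exch hst hj]; omega

theorem down_a {j : ℕ} (hj : j < mmm) :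
    ¬ wlen σ (yw (j + 1)) < wlen σ (σ s * yw (j + 1)) := by
  rw [mul_alt _ (sref_mul_self P s), alt_len exch hst hj.le, alt_len' exch hst hj]; omega

theorem up_b {j : ℕ} (hj : j < mmm) : wlen σ (yw j) < wlen σ (σ t * yw j) := by
  rw [← alt_succ, alt_len' exch hst hj.le, alt_len exch hst hj]; omega

theorem down_b {j : ℕ} (hj : j < mmm) :
    ¬ wlen σ (xw (j + 1)) < wlen σ (σ t * xw (j + 1)) := by
  rw [mul_alt _ (sref_mul_self P t), alt_len' exch hst hj.le, alt_len exch hst hj]; omega

variable [Fintype (G ⧸ P.B)]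

theorem hecke_a_x (f : Weyl P → ℝ) {j : ℕ} (hj : j < mmm) :
    hecke P s f (xw j) = qs * f (yw (j + 1)) := by
  rw [hecke, if_pos (up_a hst hj), ← alt_succ]

theorem hecke_a_y (f : Weyl P → ℝ) {j : ℕ} (hj : j < mmm) :
    hecke P s f (yw (j + 1)) = f (xw j) + (qs - 1) * f (yw (j + 1)) := by
  rw [hecke, if_neg (down_a hst hj), mul_alt _ (sref_mul_self P s)]

theorem hecke_b_y (f : Weyl P → ℝ) {j : ℕ} (hj : j < mmm) :
    hecke P t f (yw j) = qt * f (xw (j + 1)) := by
  rw [hecke, if_pos (up_b hst hj), ← alt_succ]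

theorem hecke_b_x (f : Weyl P → ℝ) {j : ℕ} (hj : j < mmm) :
    hecke P t f (xw (j + 1)) = f (yw j) + (qt - 1) * f (xw (j + 1)) := by
  rw [hecke, if_neg (down_b hst hj), mul_alt _ (sref_mul_self P t)]

/-- The three term operator. -/
noncomputable def lop (m : ℕ) (r q : ℝ) (C : ℕ → ℝ) : ℕ → ℝ := fun i =>
  if i = 0 then r * (1 + q) * C 1
  else if i < m / 2 then C (i - 1) + (r - 1) * C i + r * q * C (i + 1)
  else if Even m then (1 + q) * (C (i - 1) + (r - 1) * C i)
  else C (i - 1) + (r - 1 + r * q) * C i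

theorem coeFun_step (C : ℕ → ℝ) :
    hecke P t (coeFun hst C) + hecke P s (hecke P t (coeFun hst C)) =
      coeFun hst (lop mmm qt qs C) := by
  set g := hecke P t (coeFun hst C) with hg
  have h2 := two_le_mmm hst
  have key : ∀ j, j < mmm → g (xw j) + qs * g (yw (j + 1)) = lop mmm qt qs C ((j + 1) / 2) := by
    intro j hj
    rcases j with _ | j
    · have e1 : g (xw 0) = qt * C 1 := by
        show g (yw 0) = _
        rw [hg, hecke_b_y hst _ (by omega), coeFun_x hst C (j := 1) (by omega)]
      have e2 : g (yw 1) = qt * C 1 := by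
        rw [hg, hecke_b_y hst _ (by omega)]
        rcases Nat.lt_or_ge 2 mmm with h | h
        · rw [coeFun_x hst C h]
        · have e : mmm = 2 := by omega
          have := coeFun_top hst C
          rw [e] at this
          rw [this]
      rw [e1, e2, lop, if_pos (by omega)]; ring
    · have e1 : g (xw (j + 1)) = C (j / 2) + (qt - 1) * C ((j + 2) / 2) := by
        rw [hg, hecke_b_x hst _ (by omega), coeFun_y hst C (by omega), coeFun_x hst C hj]
      rw [e1, lop, if_neg (by omega), show (j + 1 + 1) / 2 - 1 = j / 2 by omega]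
      rcases Nat.lt_or_ge (j + 2) mmm with hlt | hge
      · have e2 : g (yw (j + 1 + 1)) = qt * coeFun hst C (xw (j + 3)) := by
          rw [hg, hecke_b_y hst _ hlt]
        rw [e2]
        by_cases hi : (j + 1 + 1) / 2 < mmm / 2
        · rw [if_pos hi]
          rcases Nat.lt_or_ge (j + 3) mmm with h | h
          · rw [coeFun_x hst C h, show (j + 3 + 1) / 2 = (j + 1 + 1) / 2 + 1 by omega]; ring
          · rw [show j + 3 = mmm by omega, coeFun_top hst C,
              show mmm / 2 = (j + 1 + 1) / 2 + 1 by omega]; ring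
        · rw [if_neg hi, if_neg (by rw [Nat.not_even_iff]; omega), show j + 3 = mmm by omega,
            coeFun_top hst C, show mmm / 2 = (j + 2) / 2 by omega]
          ring
      · have em : j + 1 + 1 = mmm := by omega
        rw [if_neg (by omega : ¬ (j + 1 + 1) / 2 < mmm / 2)]
        have e2 : g (yw (j + 1 + 1)) = C ((j + 1) / 2) + (qt - 1) * C ((j + 1 + 1) / 2) := by
          rw [em, ← alt_top exch s t, ← em, hg, hecke_b_x hst _ (by omega),
            coeFun_y hst C (by omega), em, coeFun_top hst C]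
        rw [e2]
        by_cases he : Even mmm
        · rw [if_pos he, show (j + 1) / 2 = j / 2 by
            obtain ⟨k, hk⟩ := he; omega]
          ring
        · rw [if_neg he, show (j + 1) / 2 = (j + 1 + 1) / 2 by
            rw [Nat.not_even_iff] at he; omega]
          ring
  funext w
  refine forall_weyl hst (p := fun w => (g + hecke P s g) w = coeFun hst (lop mmm qt qs C) w)
    (fun j hj => ?_) (fun j hj => ?_) w
  · rw [Pi.add_apply, hecke_a_x hst g hj, coeFun_x hst _ hj, key j hj]
  · rw [Pi.add_apply, hecke_a_y hst g hj, coeFun_y hst _ hj, ← key j hj]; ring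

theorem hecke_a_coeFun (C : ℕ → ℝ) : hecke P s (coeFun hst C) = qs • coeFun hst C := by
  funext w
  refine forall_weyl hst (p := fun w => hecke P s (coeFun hst C) w = (qs • coeFun hst C) w)
    (fun j hj => ?_) (fun j hj => ?_) w
  · rw [hecke_a_x hst _ hj, Pi.smul_apply, coeFun_x hst C hj, coeFun_y hst C hj, smul_eq_mul]
  · rw [hecke_a_y hst _ hj, Pi.smul_apply, coeFun_x hst C hj, coeFun_y hst C hj, smul_eq_mul]; ring

omit hst in
theorem dmat_add (f g : Weyl P → ℝ) : dmat P f + dmat P g = dmat P (f + g) := rfl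

omit hst in
theorem dmat_smul (c : ℝ) (f : Weyl P → ℝ) : dmat P (c • f) = c • dmat P f := rfl

variable [DecidableEq (G ⧸ P.B)]

/-- The operator `(1 + A s) * A t`. -/
noncomputable def opM (s t : P.S) : Matrix (G ⧸ P.B) (G ⧸ P.B) ℝ :=
  (1 + dmat P (adjFun s)) * dmat P (adjFun t)

theorem opM_mul (C : ℕ → ℝ) :
    opM s t * dmat P (coeFun hst C) = dmat P (coeFun hst (lop mmm qt qs C)) := by
  rw [opM, mul_assoc, adj_mul_dmat, add_mul, one_mul, adj_mul_dmat, dmat_add, coeFun_step hst C]

theorem proj_mul (C : ℕ → ℝ) :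
    (1 + dmat P (adjFun s)) * dmat P (coeFun hst C) = (1 + qs) • dmat P (coeFun hst C) := by
  rw [add_mul, one_mul, adj_mul_dmat, hecke_a_coeFun hst C, dmat_smul, add_smul, one_smul]

theorem proj_eq : 1 + dmat P (adjFun s) =
    dmat P (coeFun hst fun i => if i = 0 then 1 else 0) := by
  classical
  have h2 := two_le_mmm hst
  have hval : ∀ w, coeFun hst (fun i => if i = 0 then (1 : ℝ) else 0) w =
      (if w = 1 then 1 else 0) + adjFun s w := by
    intro w
    have hne := sref_ne (P := P) hst
    refine forall_weyl hst (p := fun w => coeFun hst (fun i => if i = 0 then (1 : ℝ) else 0) w =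
      (if w = 1 then 1 else 0) + adjFun s w) (fun j hj => ?_) (fun j hj => ?_) w
    · rw [coeFun_x hst _ hj]
      rcases j with _ | j
      · simp [adjFun, (sref_ne_one (P := P) s).symm]
      · have hl := alt_len exch hst hj.le
        have n1 : xw (j + 1) ≠ 1 := fun e => by
          rw [e, (invGen P).wlen_eq_zero.2 rfl] at hl; omega
        have n2 : xw (j + 1) ≠ σ s := fun e => by
          have hl' := hl
          rw [e, exch.wlen_sigma] at hl'
          have : j = 0 := by omega
          subst this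
          simp [alt] at e
          exact hne e.symm
        simp [adjFun, n1, n2]
    · rw [coeFun_y hst _ hj]
      rcases j with _ | j
      · simp [adjFun, alt, sref_ne_one (P := P) s]
      · have hl := alt_len' exch hst (j := j + 2) hj
        have n1 : yw (j + 1 + 1) ≠ 1 := fun e => by
          rw [e, (invGen P).wlen_eq_zero.2 rfl] at hl; omega
        have n2 : yw (j + 1 + 1) ≠ σ s := fun e => by
          rw [e, exch.wlen_sigma] at hl; omega
        simp [adjFun, n1, n2]
  ext x y
  rw [Matrix.add_apply, Matrix.one_apply, dmat, dmat, Matrix.of_apply, Matrix.of_apply, hval]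
  simp [dist_eq_one]

theorem mem_span_poly (C : ℕ → ℝ) :
    ∃ p : ℝ[X], dmat P (coeFun hst C) = aeval (opM s t) p * (1 + dmat P (adjFun s)) := by
  have h2 := two_le_mmm hst
  suffices H : ∀ k, k ≤ mmm / 2 → ∀ C : ℕ → ℝ, (∀ i, k < i → i ≤ mmm / 2 → C i = 0) →
      ∃ p : ℝ[X], dmat P (coeFun hst C) = aeval (opM s t) p * (1 + dmat P (adjFun s)) from
    H _ le_rfl C fun i h1 h2 => absurd h2 (by omega)
  intro k
  induction k with
  | zero =>
    intro _ C hC
    refine ⟨Polynomial.C (C 0), ?_⟩
    rw [aeval_C, proj_eq hst, ← Algebra.smul_def, ← dmat_smul]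
    congr 1
    funext w
    rw [Pi.smul_apply, smul_eq_mul]
    show _ = C 0 * coeFun hst _ w
    unfold coeFun
    set i := (((Equiv.ofBijective _ (enum_bijective exch hst)).symm w).1.val + 1) / 2 with hi
    by_cases h : i = 0
    · simp [h]
    · have := ((Equiv.ofBijective _ (enum_bijective exch hst)).symm w).1.isLt
      rw [hC i (by omega) (by omega)]; simp [h]
  | succ k ih =>
    intro hk C hC
    set δ : ℕ → ℝ := fun i => if i = k then 1 else 0 with hδ
    set D := lop mmm qt qs δ with hD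
    obtain ⟨p1, hp1⟩ := ih (by omega) δ fun i h1 _ => if_neg (by omega)
    have hD0 : D (k + 1) ≠ 0 := by
      rw [hD, lop, if_neg (by omega)]
      simp only [hδ]
      split_ifs <;> simp_all <;> positivity
    have hDsup : ∀ i, k + 1 < i → i ≤ mmm / 2 → D i = 0 := by
      intro i h1 _
      rw [hD, lop, if_neg (by omega)]
      simp only [hδ, if_neg (show i - 1 ≠ k by omega), if_neg (show i ≠ k by omega),
        if_neg (show i + 1 ≠ k by omega)]
      split_ifs <;> ring
    set C' : ℕ → ℝ := fun i => C i - C (k + 1) / D (k + 1) * D i with hC'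
    obtain ⟨p2, hp2⟩ := ih (by omega) C' fun i h1 h3 => by
      rcases eq_or_lt_of_le (Nat.succ_le_of_lt h1) with e | e
      · rw [← e, hC']; simp only; rw [div_mul_cancel₀ _ hD0, sub_self]
      · rw [hC']; simp only; rw [hC i e h3, hDsup i e h3]; ring
    refine ⟨p2 + Polynomial.C (C (k + 1) / D (k + 1)) * (X * p1), ?_⟩
    rw [map_add, map_mul, map_mul, aeval_X, aeval_C, add_mul, ← hp2, mul_assoc, mul_assoc, ← hp1,
      opM_mul hst δ, ← Algebra.smul_def, ← dmat_smul, dmat_add]
    congr 1
    funext w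
    simp only [Pi.add_apply, Pi.smul_apply, smul_eq_mul, coeFun, hC', ← hD]
    ring

theorem aeval_opM_mul {C : ℕ → ℝ} {l : ℝ} (h : ∀ i, i ≤ mmm / 2 → lop mmm qt qs C i = l * C i)
    (p : ℝ[X]) : aeval (opM s t) p * dmat P (coeFun hst C) = p.eval l • dmat P (coeFun hst C) := by
  have h1 : opM s t * dmat P (coeFun hst C) = l • dmat P (coeFun hst C) := by
    rw [opM_mul hst C, coeFun_congr hst (C := lop mmm qt qs C) (D := fun i => l * C i) h,
      ← dmat_smul]
    rfl
  induction p using Polynomial.induction_on' with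
  | add p q hp hq => rw [map_add, add_mul, hp, hq, eval_add, add_smul]
  | monomial n c =>
    induction n generalizing c with
    | zero => rw [monomial_zero_left, aeval_C, eval_C, ← Algebra.smul_def]
    | succ n ih =>
      rw [← monomial_mul_X, map_mul, aeval_X, mul_assoc, h1, mul_smul_comm, ih, smul_smul,
        eval_mul, eval_X, mul_comm l]

omit [DecidableEq (G ⧸ P.B)] in
theorem val_x_succ {j : ℕ} (hj : j < mmm) : (val P (xw (j + 1)) : ℝ) = qt * val P (yw j) := by
  rw [alt_succ, val_mul (up_b hst hj)]; push_cast; rfl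

omit [DecidableEq (G ⧸ P.B)] in
theorem val_y_succ {j : ℕ} (hj : j < mmm) : (val P (yw (j + 1)) : ℝ) = qs * val P (xw j) := by
  rw [alt_succ, val_mul (up_a hst hj)]; push_cast; rfl

omit [DecidableEq (G ⧸ P.B)] in
theorem val_even : ∀ i, 2 * i ≤ mmm →
    (val P (xw (2 * i)) : ℝ) = (qt * qs) ^ i ∧ (val P (yw (2 * i)) : ℝ) = (qt * qs) ^ i
  | 0, _ => by simp [val_one]
  | i + 1, h => by
    obtain ⟨h1, h2⟩ := val_even i (by omega)
    rw [show 2 * (i + 1) = 2 * i + 1 + 1 by ring, val_x_succ hst (j := 2 * i + 1) (by omega),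
      val_y_succ hst (j := 2 * i + 1) (by omega), val_x_succ hst (j := 2 * i) (by omega),
      val_y_succ hst (j := 2 * i) (by omega), h1, h2]
    constructor <;> ring

omit [DecidableEq (G ⧸ P.B)] in
theorem val_odd_eq (h : Odd mmm) : qs = qt := by
  obtain ⟨d, hd⟩ := h
  obtain ⟨h1, h2⟩ := val_even hst d (by omega)
  have e := val_x_succ hst (j := 2 * d) (by omega)
  rw [← hd, alt_top exch s t, hd, val_y_succ hst (by omega), h1, h2] at e
  have := two_le_val s
  have := two_le_val t
  exact mul_right_cancel₀ (by positivity) e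

omit [DecidableEq (G ⧸ P.B)] in
theorem sum_val [Fintype (Weyl P)] (C : ℕ → ℝ) :
    ∑ w, (val P w : ℝ) * coeFun hst C w ^ 2 =
      (1 + qs) * ∑ j ∈ Finset.range mmm, (val P (xw j) : ℝ) * C ((j + 1) / 2) ^ 2 := by
  rw [← Equiv.sum_comp (Equiv.ofBijective _ (enum_bijective exch hst))
    (fun w => (val P w : ℝ) * coeFun hst C w ^ 2), Fintype.sum_prod_type,
    ← Fin.sum_univ_eq_sum_range (fun j => (val P (xw j) : ℝ) * C ((j + 1) / 2) ^ 2), Finset.mul_sum]
  refine Finset.sum_congr rfl fun j _ => ?_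
  rw [Fintype.sum_bool]
  simp only [Equiv.ofBijective_apply, enum, if_true, Bool.false_eq_true, if_false]
  rw [coeFun_x hst C j.isLt, coeFun_y hst C j.isLt, val_y_succ hst j.isLt]
  ring

theorem exists_natCast_mul {C : ℕ → ℝ} {l : ℝ} [Fintype (Weyl P)] (h0 : C 0 = 1)
    (h : ∀ i, i ≤ mmm / 2 → lop mmm qt qs C i = l * C i) :
    ∃ N : ℕ, (N : ℝ) * ∑ w, (val P w : ℝ) * coeFun hst C w ^ 2 =
      (Fintype.card (G ⧸ P.B) : ℝ) := by
  set E := dmat P (coeFun hst C) with hE
  set S := ∑ w, (val P w : ℝ) * coeFun hst C w ^ 2 with hS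
  set K := (Fintype.card (G ⧸ P.B) : ℝ) with hK
  have hone : coeFun hst C 1 = 1 := by
    have := coeFun_y hst C (j := 0) (Nat.zero_le _)
    simpa [h0] using this
  have hK0 : 0 < K := by
    have : Nonempty (G ⧸ P.B) := ⟨QuotientGroup.mk 1⟩
    rw [hK]; exact_mod_cast Fintype.card_pos
  have hS0 : 0 < S := by
    refine lt_of_lt_of_le ?_ (Finset.single_le_sum (f := fun w => (val P w : ℝ) * coeFun hst C w ^ 2)
      (fun w _ => by positivity) (Finset.mem_univ 1))
    simp [val_one, hone]
  obtain ⟨p, hp⟩ := mem_span_poly hst C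
  have hEE : E * E = (p.eval l * (1 + qs)) • E := by
    conv_lhs => arg 1; rw [hE, hp]
    rw [mul_assoc, hE, proj_mul hst C, mul_smul_comm, aeval_opM_mul hst h p, smul_smul,
      mul_comm (p.eval l)]
  have htr : E.trace = K := by rw [hE, trace_dmat, hone, mul_one]
  have htr2 : (E * E).trace = K * S := by rw [hE, trace_dmat_mul (coeFun_inv hst C)]
  have hc : p.eval l * (1 + qs) = S := by
    rw [hEE, Matrix.trace_smul, htr, smul_eq_mul, mul_comm] at htr2
    exact mul_left_cancel₀ hK0.ne' htr2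
  rw [hc] at hEE
  obtain ⟨N, hN⟩ := exists_natCast_eq_trace (M := S⁻¹ • E) (by
    rw [smul_mul_smul_comm, hEE, smul_smul, mul_assoc, inv_mul_cancel₀ hS0.ne', mul_one])
  refine ⟨N, ?_⟩
  rw [hN, Matrix.trace_smul, htr, smul_eq_mul]
  field_simp

/-- The half sum of weights. -/
theorem sum_range_val {R : ℝ} (hR : R ^ 2 = qt * qs) (θ u : ℝ) : ∀ n, 2 * n + 1 ≤ mmm →
    ∑ j ∈ Finset.range (2 * n + 1), (val P (xw j) : ℝ) * (gseq θ u ((j + 1) / 2) / R ^ ((j + 1) / 2)) ^ 2
      = 1 + (1 + qs) / qs * ∑ i ∈ Finset.range n, gseq θ u (i + 1) ^ 2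
  | 0, _ => by simp [val_one, gseq_zero]
  | n + 1, h => by
    have hs : (0 : ℝ) < qs := by have := two_le_val s; positivity
    have ht : (0 : ℝ) < qt := by have := two_le_val t; positivity
    rw [show 2 * (n + 1) + 1 = 2 * n + 1 + 1 + 1 by ring, Finset.sum_range_succ, Finset.sum_range_succ,
      sum_range_val hR θ u n (by omega), Finset.sum_range_succ _ n,
      show (2 * n + 1 + 1) / 2 = n + 1 by omega, show (2 * n + 1 + 1 + 1) / 2 = n + 1 by omega,
      show 2 * n + 1 + 1 = 2 * (n + 1) by ring, (val_even hst (n + 1) (by omega)).1,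
      val_x_succ hst (by omega), (val_even hst n (by omega)).2, div_pow, ← pow_mul,
      mul_comm (n + 1) 2, pow_mul, hR]
    field_simp
    ring

/-- **The rationality relation.** -/
theorem rational_rel (k : ℕ) (hθ : Real.sin (2 * Real.pi * k / mmm) ≠ 0) :
    ∃ ρ : ℚ, (ρ : ℝ) * (4 * (qt * qs) -
        (Real.sqrt (qt * qs) * (2 * Real.cos (2 * Real.pi * k / mmm))) ^ 2) =
      (qt * qs + 1) * (qt + qs) +
        (qt - 1) * (qs - 1) * (Real.sqrt (qt * qs) * (2 * Real.cos (2 * Real.pi * k / mmm))) -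
        (Real.sqrt (qt * qs) * (2 * Real.cos (2 * Real.pi * k / mmm))) ^ 2 := by
  have : Fintype (Weyl P) := Fintype.ofFinite _
  have h2 := two_le_mmm hst
  set θ := 2 * Real.pi * k / mmm with hθdef
  set α := 2 * Real.cos θ with hα
  set R := Real.sqrt (qt * qs) with hRdef
  have hs2 : (2 : ℝ) ≤ qs := by exact_mod_cast two_le_val s
  have ht2 : (2 : ℝ) ≤ qt := by exact_mod_cast two_le_val t
  have hR : R ^ 2 = qt * qs := Real.sq_sqrt (by positivity)
  have hR0 : 0 < R := Real.sqrt_pos.2 (by positivity)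
  set u := (R * (qt - 1) + qt * qs * α) / (qt * (1 + qs)) with hu
  set l := qt - 1 + R * α with hl
  set C : ℕ → ℝ := fun i => gseq θ u i / R ^ i with hC
  have hmθ : (mmm : ℝ) * θ = ((2 * k : ℕ) : ℝ) * Real.pi := by
    rw [hθdef]; field_simp; push_cast; ring
  have hsm : Real.sin ((mmm : ℝ) * θ) = 0 := by rw [hmθ]; exact Real.sin_nat_mul_pi _
  have hcm : Real.cos ((mmm : ℝ) * θ) = 1 := by
    rw [hmθ, Real.cos_nat_mul_pi, pow_mul]; simp
  have hd0 : 0 < mmm / 2 := by omega
  obtain ⟨e, he⟩ := Nat.exists_eq_succ_of_ne_zero hd0.ne'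
  have e0 : qt * (1 + qs) * u = R * (qt - 1) + qt * qs * α := by rw [hu]; field_simp
  -- facts at the middle
  rcases Nat.even_or_odd' mmm with ⟨d, hd | hd⟩
  · have hdd : mmm / 2 = d := by omega
    rw [hdd] at he hd0
    have hsd : Real.sin ((d : ℝ) * θ) = 0 := by
      have : (d : ℝ) * θ = (k : ℝ) * Real.pi := by
        rw [hθdef, hd]; push_cast; field_simp
      rw [this]; exact Real.sin_nat_mul_pi _
    obtain ⟨g1, g2, g3⟩ := gseq_half_even u hθ hsd
    have heig : ∀ i, i ≤ mmm / 2 → lop mmm qt qs C i = l * C i := by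
      intro i hi
      rcases i with _ | i
      · rw [lop, if_pos rfl, hC]
        simp only [gseq_zero, gseq_one u hθ, pow_zero, pow_one, hl]
        field_simp
        linear_combination e0 - α * hR
      · rw [lop, if_neg (Nat.succ_ne_zero i), Nat.add_sub_cancel]
        rcases lt_or_eq_of_le hi with h | h
        · rw [if_pos h, hC]
          simp only [hl, pow_succ]
          field_simp
          linear_combination (R * R) * gseq_rec θ u i - gseq θ u (i + 1 + 1) * hR
        · rw [if_neg h.not_lt, if_pos ⟨d, by omega⟩, hC]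
          have := g3 i (by omega)
          rw [show d = i + 1 by omega] at this
          have hh : (1 + qs) * (R * gseq θ u i + (qt - 1) * gseq θ u (i + 1)) =
              (qt - 1 + R * α) * gseq θ u (i + 1) := by
            refine mul_left_cancel₀ (show qt ≠ 0 by positivity) ?_
            rw [← hα] at this
            linear_combination qt * (1 + qs) * R * this - gseq θ u (i + 1) * R * e0
              - gseq θ u (i + 1) * (qt - 1) * hR
          simp only [hl, pow_succ]
          field_simp
          linear_combination hh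
    obtain ⟨N, hN⟩ := exists_natCast_mul hst (by simp [hC, gseq_zero]) heig
    refine ⟨(Fintype.card (G ⧸ P.B) : ℚ) / ((N : ℚ) * (mmm : ℚ)), ?_⟩
    have hsum : ∑ w, (val P w : ℝ) * coeFun hst C w ^ 2 =
        (1 + qs) * ((1 + qs) / qs * ∑ i ∈ Finset.range d, gseq θ u (i + 1) ^ 2) := by
      rw [sum_val hst C, show Finset.range mmm = Finset.range (2 * e + 1 + 1) by congr 1; omega,
        Finset.sum_range_succ, sum_range_val hst hR θ u e (by omega), he,
        Finset.sum_range_succ _ e, show (2 * e + 1 + 1) / 2 = e + 1 by omega,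
        val_x_succ hst (by omega), (val_even hst e (by omega)).2, hC]
      simp only
      rw [div_pow, ← pow_mul, mul_comm (e + 1) 2, pow_mul, hR]
      rw [he] at g2
      field_simp
      linear_combination g2 * (-qs * (qt * qs) ^ (e + 1))
    have hsq : (4 - α ^ 2) * ∑ i ∈ Finset.range d, gseq θ u (i + 1) ^ 2 =
        2 * d * (u ^ 2 - α * u + 1) := by
      rw [hα, gseq_sum_sq u hθ d, g1, g2]
      linear_combination -(2 * Real.cos θ * u) * g2
    generalize hSg : ∑ i ∈ Finset.range d, gseq θ u (i + 1) ^ 2 = Sg at hsum hsq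
    have hN' := hN
    rw [hsum] at hN'
    have hKpos : (0 : ℝ) < Fintype.card (G ⧸ P.B) := by
      have : Nonempty (G ⧸ P.B) := ⟨QuotientGroup.mk 1⟩
      exact_mod_cast Fintype.card_pos
    have hN0 : (N : ℝ) ≠ 0 := fun h => by rw [h, zero_mul] at hN'; linarith
    push_cast
    rw [← hN', hd]
    push_cast
    have hd' : (d : ℝ) ≠ 0 := by positivity
    have key : qt * (1 + qs) ^ 2 * (u ^ 2 - α * u + 1) =
        (qt * qs + 1) * (qt + qs) + (qt - 1) * (qs - 1) * (R * α) - (R * α) ^ 2 := by
      rw [hu]; field_simp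
      linear_combination ((qt - 1) ^ 2 + qt * α ^ 2) * hR
    have final : (1 + qs) ^ 2 * Sg * (4 * (qt * qs) - (R * α) ^ 2) =
        2 * d * qs * ((qt * qs + 1) * (qt + qs) + (qt - 1) * (qs - 1) * (R * α) - (R * α) ^ 2) := by
      linear_combination (1 + qs) ^ 2 * (qt * qs) * hsq + 2 * d * qs * key
        - (1 + qs) ^ 2 * α ^ 2 * Sg * hR
    field_simp
    linear_combination final
  · have hdd : mmm / 2 = d := by omega
    rw [hdd] at he hd0
    have hq : qs = qt := val_odd_eq hst ⟨d, hd⟩
    have hRq : R = qt := by rw [hRdef, hq, Real.sqrt_mul_self (by positivity)]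
    have hu' : u = (qt - 1 + qt * α) / (qt + 1) := by
      rw [hu, hq, hRq]; field_simp; ring
    have hg : gseq θ u (d + 1) = qt * gseq θ u d := by
      rw [hu', hα]
      exact gseq_half_odd qt (by positivity) hθ (by rwa [← hd]) (by rwa [← hd])
    have heig : ∀ i, i ≤ mmm / 2 → lop mmm qt qs C i = l * C i := by
      intro i hi
      rcases i with _ | i
      · rw [lop, if_pos rfl, hC]
        simp only [gseq_zero, gseq_one u hθ, pow_zero, pow_one, hl]
        field_simp
        linear_combination e0 - α * hR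
      · rw [lop, if_neg (Nat.succ_ne_zero i), Nat.add_sub_cancel]
        rcases lt_or_eq_of_le hi with h | h
        · rw [if_pos h, hC]
          simp only [hl, pow_succ]
          field_simp
          linear_combination (R * R) * gseq_rec θ u i - gseq θ u (i + 1 + 1) * hR
        · rw [if_neg h.not_lt, if_neg (by rw [Nat.not_even_iff]; omega), hC]
          have h1 := gseq_rec θ u i
          rw [show i + 2 = d + 1 by omega, hg, show d = i + 1 by omega] at h1
          simp only [hl, pow_succ, hRq, hq, hα]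
          field_simp
          linear_combination qt * h1
    obtain ⟨N, hN⟩ := exists_natCast_mul hst (by simp [hC, gseq_zero]) heig
    refine ⟨(Fintype.card (G ⧸ P.B) : ℚ) / ((N : ℚ) * (mmm : ℚ)), ?_⟩
    have hsum : ∑ w, (val P w : ℝ) * coeFun hst C w ^ 2 =
        (1 + qs) * (1 + (1 + qs) / qs * ∑ i ∈ Finset.range d, gseq θ u (i + 1) ^ 2) := by
      rw [sum_val hst C, hd, sum_range_val hst hR θ u d (by omega)]
    have hJ := gseq_invariant u hθ d
    rw [hg] at hJ
    have hJ2 : (qt + 1) ^ 2 * (u ^ 2 - α * u + 1) = (2 + α) * (qt ^ 2 - qt * α + 1) := by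
      rw [hu']; field_simp; ring
    have hpos : 0 < qt ^ 2 - qt * α + 1 := by
      nlinarith [Real.cos_le_one θ]
    have hgd : (qt + 1) ^ 2 * gseq θ u d ^ 2 = 2 + α := by
      refine mul_right_cancel₀ hpos.ne' ?_
      rw [← hJ2, hα]
      linear_combination (qt + 1) ^ 2 * hJ
    have hsq : (4 - α ^ 2) * ∑ i ∈ Finset.range d, gseq θ u (i + 1) ^ 2 =
        2 * d * (u ^ 2 - α * u + 1) + gseq θ u d ^ 2 * (2 - qt * α) - 2 + α * u := by
      rw [hα, gseq_sum_sq u hθ d, hg]
      ring
    have hB : (qt + 1) * (gseq θ u d ^ 2 * (2 - qt * α) - 2 + α * u) + qt * (4 - α ^ 2) =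
        (qt + 1) * (u ^ 2 - α * u + 1) := by
      have hne : qt + 1 ≠ 0 := by positivity
      refine mul_left_cancel₀ hne ?_
      have hu2 : (qt + 1) * u = qt - 1 + qt * α := by rw [hu']; field_simp
      linear_combination (2 - qt * α) * hgd - hJ2 + α * (qt + 1) * hu2
    generalize hSg : ∑ i ∈ Finset.range d, gseq θ u (i + 1) ^ 2 = Sg at hsum hsq
    have hN' := hN
    rw [hsum] at hN'
    have hKpos : (0 : ℝ) < Fintype.card (G ⧸ P.B) := by
      have : Nonempty (G ⧸ P.B) := ⟨QuotientGroup.mk 1⟩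
      exact_mod_cast Fintype.card_pos
    have hN0 : (N : ℝ) ≠ 0 := fun h => by rw [h, zero_mul] at hN'; linarith
    push_cast
    rw [← hN', hd, hRq, hq]
    push_cast
    have key : qt * (1 + qt) ^ 2 * (u ^ 2 - α * u + 1) =
        (qt * qt + 1) * (qt + qt) + (qt - 1) * (qt - 1) * (qt * α) - (qt * α) ^ 2 := by
      linear_combination qt * hJ2
    have final : (1 + qt) * (qt + (1 + qt) * Sg) * (4 * (qt * qt) - (qt * α) ^ 2) =
        (2 * d + 1) * qt * ((qt * qt + 1) * (qt + qt) + (qt - 1) * (qt - 1) * (qt * α) - (qt * α) ^ 2) := by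
      linear_combination qt ^ 2 * (1 + qt) ^ 2 * hsq + qt ^ 2 * (1 + qt) * hB + (2 * d + 1) * qt * key
    field_simp
    refine mul_left_cancel₀ (show qt ^ 2 ≠ 0 by positivity) ?_
    linear_combination final

end rankTwo

end Cfsg.Agent.FeitHigman
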